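import Cfsg.Agent.H300.Ru.Theta
import Cfsg.Agent.H740.K4.Four
import Cfsg.Agent.H740.K4.Equiv
import Cfsg.Agent.H714.K4.Defs
import Cfsg.Agent.NotCT.Orders
import Cfsg.Agent.RuLat.Main

/-!
# S4947 / S4547, row `Ru` (helper300): `Good5 S`, `RowA S`

The rational characters of degrees `1`, `783`, `20475`, `23751`; their values at an element of order 3 are
`1, 0, 9, -9`, with an odd sum (column parity, `H740/K4/Four.lean`).
-/

set_option autoImplicit false
set_option maxRecDepth 100000

namespace Cfsg.Agent.H300.Ru.Row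

open Cfsg Cfsg.Agent.H740.K4 Cfsg.Agent.SporadicB Cfsg.Agent.SporadicB.RuOrder Cfsg.Agent.H300.Cls

universe u

/-- the tables -/
def tt : Fin 4 → List ℤ := ![v0, va, th1, th2]

theorem irr_tt (i : Fin 4) : IsIrrCharacter H (tv fam (tt i)) := by
  fin_cases i
  · exact irr_of gc0 (by decide +kernel) (by decide +kernel)
  · exact irr_a
  · exact irr_th1
  · exact irr_th2

theorem deg_tt : ∀ i : Fin 4, ((tt i).getD 0 0).toNat = (tt i).getD 0 0 ∧ Odd ((tt i).getD 0 0).toNat := by
  decide +kernel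

theorem inj_tt : ∀ i j : Fin 4, (tt i).getD 0 0 = (tt j).getD 0 0 → i = j := by decide +kernel

theorem tv_one (v : List ℤ) : tv fam v 1 = ((v.getD 0 0 : ℤ) : ℂ) := by
  rw [tv, fam_one]

theorem good_tt (i : Fin 4) : H601.K4.Good (tv fam (tt i)) := by
  refine good_of_rat (irr_tt i) (fun g => ⟨((tt i).getD (fam g) 0 : ℤ), ?_⟩) ?_
  · rw [tv]
    push_cast
    rfl
  · obtain ⟨h1, h2⟩ := deg_tt i
    have h3 : tv fam (tt i) 1 = (((tt i).getD 0 0).toNat : ℕ) := by
      rw [tv_one, ← h1]
      push_cast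
      rfl
    rw [Cfsg.Agent.Blocks.Basic.charDegree_of_eq h3]
    exact h2

theorem good5_model : H601.K4.Good5 H := by
  have ho : orderOf (R 3) = 3 := order_R 3
  refine good5_of_four (by rw [card_H]; decide) (χ := fun i => tv fam (tt i)) (t := R 3)
    (z := fun i => (tt i).getD 3 0) ?_ good_tt (by rw [ho]; decide) ?_ (by decide +kernel)
  · intro i j hij
    apply inj_tt
    have h := congrFun hij 1
    simp only [tv_one] at h
    exact_mod_cast h
  · intro i
    have h : fam (R 3) = 3 := fam_R 3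
    rw [tv, h]

/-- **`Ru`, row (A) of S4547** -/
theorem good5 {S : Type u} [Group S] (h : Spor.IsoRu S) : H601.K4.Good5 S := by
  obtain ⟨e⟩ := h
  have : Finite S := Finite.of_equiv _ (e.trans RuLat.Main.equiv).symm.toEquiv
  exact good5_of_equiv (e.trans RuLat.Main.equiv) good5_model

theorem odd5 {S : Type u} [Group S] (h : Spor.IsoRu S) : H601.K4.Odd5 S := (good5 h).odd5

/-- **`Ru`, row (A) of S4947** -/
theorem rowA {S : Type u} [Group S] (h : Spor.IsoRu S) : H714.K4.RowA S := by
  classical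
  have : Finite S := Nat.finite_of_card_ne_zero (by rw [NotCT.Orders.ru h]; norm_num)
  obtain ⟨χ, h1, h2⟩ := odd5 h
  refine H714.K4.rowA_of_finset (Finset.univ.image χ) ?_ ?_
  · rw [Finset.card_image_of_injective _ h1]
    simp
  · intro ψ hψ
    obtain ⟨i, -, rfl⟩ := Finset.mem_image.1 hψ
    exact h2 i

end Cfsg.Agent.H300.Ru.Row
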